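import Cfsg.Agent.H579.RG.LongSh
import Cfsg.Agent.H296.FFourGam
import Cfsg.Agent.ChevalleyStructure.GraphG2

/-!
# S3509: the short root elements of `F₄(2^n)` and `G₂(3^n)` (helper579)

* `grA_F4` : `al (KK 2)` for `m.σ = phi chevF4 (KK 2) 2 n`, `b = vec chevF4 4 44`;
* `exists_grA_G2` : `G₂`, `m.σ = phi chevG2 (KK 3) 3 n`, `b = vec chevG2 2 9`.
-/

set_option autoImplicit false
set_option linter.unusedSectionVars false

namespace Cfsg.Agent.H579.RG

open CoxeterSystem Cfsg Cfsg.Lie Cfsg.Lie.ChevalleyDatum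
open Cfsg.Agent.ChevalleyStructure Cfsg.Agent.ChevalleyStructure.Elts Cfsg.Agent.ChevalleyStructure.CoxeterGeom
  Cfsg.Agent.ChevalleyStructure.CoxeterGeomTypes
open Cfsg.Agent.Nodes.RGDChev Cfsg.Agent.KFacts.RgdChevCoord Cfsg.Agent.CpAut.RgdUntw
open Cfsg.Agent.GpExc.Field (glMap emb coe_emb glMap_xG emb_injective coe_glMap)
open Cfsg.Agent.BpExc Cfsg.Agent.BpExc.FamExt Cfsg.Agent.BpExc.FamField Cfsg.Agent.BpExc.Tow
  Cfsg.Agent.BpExc.TowChev Cfsg.Agent.BpExc.FamUntw Cfsg.Agent.BpExc.FamInst Cfsg.Agent.BpExc.LangFr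
open Cfsg.Agent.H79.SimpleGen (xS)
open Cfsg.Agent.H296.FFour Cfsg.Agent.H316.U6 Cfsg.Agent.H469.Exc Cfsg.Agent.H469.Exc.SigFr

universe u v

theorem xc_eq_xS {D : ChevalleyDatum} {l : ℕ} {M : CoxeterMatrix (Fin l)} (hp : IsType D l M) {K : Type u} [Field K]
    {s : ℕ} (hs : s < D.nroots) (t : K) : xc hp (vec D l s) t = xS hp.inList s t := Subtype.ext (coe_xc hp hs t)

variable {q : ℕ} {K₀ : Type v} [Group K₀]

theorem n47 : chevF4.nroots = 48 := by decide +kernel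

theorem n11 : chevG2.nroots = 12 := by decide +kernel

theorem br47 : br 47 = 44 ∧ la 47 = 1 := by decide +kernel

/-- **`F₄`, characteristic 2** -/
theorem grA_F4 (m : MData hp4 2 q K₀) {n : ℕ} (hσ : m.σ = phi chevF4 (KK 2) 2 n) :
    GrA m (vec chevF4 4 44) (al (KK 2)) where
  comm y := by
    rw [hσ]
    exact congrArg (fun f : MulAut _ => f y) (al_mul_fld (K := KK 2) _)
  map t := by
    have e : chevF4.nroots - 1 = 47 := by rw [n47]
    have e1 : vec chevF4 4 (chevF4.nroots - 1) = vec chevF4 4 47 := by rw [e]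
    rw [e1, xc_eq_xS hp4 (by rw [n47]; norm_num), xc_eq_xS hp4 (by rw [n47]; norm_num), al_xS (by norm_num), br47.1,
      br47.2, pow_one]

theorem hp2 : IsType chevG2 2 CoxeterMatrix.G₂ := by simp [IsType, typeList]

theorem sim2 : ∀ i < chevG2.rank, chevG2.simple i < 12 ∧ chevG2.neg (chevG2.simple i) < 12 := by decide +kernel

/-- **`G₂`, characteristic 3** -/
theorem exists_grA_G2 {r : ℕ} [hr : Fact r.Prime] (hr3 : r = 3) (m : MData hp2 r q K₀) {n : ℕ}
    (hσ : m.σ = phi chevG2 (KK r) r n) : ∃ α, GrA m (vec chevG2 2 9) α := by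
  subst hr3
  have hperf : ∀ x : KK 3, ∃ y : KK 3, y ^ 3 = x := fun x => by
    obtain ⟨y, hy⟩ := (PerfectRing.bijective_frobenius (R := KK 3) (p := 3)).2 x
    exact ⟨y, hy⟩
  obtain ⟨α, hα⟩ := Cfsg.Agent.ChevalleyStructure.GraphG2.exists_graph (K := KK 3) hperf
  have h1 : ∀ s < 12, ∀ t : KK 3, α (xS hp2.inList s t) = xS hp2.inList
      ([2, 3, 0, 1, 5, 4, 7, 6, 10, 11, 8, 9].getD s 0) (t ^ [1, 1, 3, 3, 3, 1, 1, 3, 3, 3, 1, 1].getD s 0) := by
    intro s hs t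
    apply Subtype.ext
    apply Units.ext
    exact hα (xS hp2.inList s t) s t hs rfl
  have h2 : ∀ s t, phi chevG2 (KK 3) 3 n (xS hp2.inList s t) = xS hp2.inList s (t ^ 3 ^ n) := by
    intro s t
    unfold phi
    have h3 : fld chevG2 (frb (KK 3) 3 n) (xS hp2.inList s t) = xS hp2.inList s (frb (KK 3) 3 n t) := by
      apply Subtype.ext
      rw [Cfsg.Agent.BpExc.FamTw.Gr.coe_fld]
      exact glMap_xG hp2.inList (frb (KK 3) 3 n : KK 3 →+* KK 3) s t
    rw [h3, frb_apply]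
  have hcomm : (α.toMonoidHom.comp (phi chevG2 (KK 3) 3 n).toMonoidHom) =
      ((phi chevG2 (KK 3) 3 n).toMonoidHom.comp α.toMonoidHom) := by
    have key : ∀ s < 12, ∀ t : KK 3, (α.toMonoidHom.comp (phi chevG2 (KK 3) 3 n).toMonoidHom) (xS hp2.inList s t) =
        ((phi chevG2 (KK 3) 3 n).toMonoidHom.comp α.toMonoidHom) (xS hp2.inList s t) := by
      intro s hs t
      change α (phi chevG2 (KK 3) 3 n (xS hp2.inList s t)) = phi chevG2 (KK 3) 3 n (α (xS hp2.inList s t))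
      rw [h2, h1 s hs, h1 s hs, h2, ← pow_mul, ← pow_mul, mul_comm]
    exact Cfsg.Agent.H79.SimpleGen.hom_ext hp2.inList _ _ (fun i hi t => key _ (sim2 i hi).1 t)
      (fun i hi t => key _ (sim2 i hi).2 t)
  refine ⟨α, ⟨fun y => ?_, fun t => ?_⟩⟩
  · rw [hσ]
    exact DFunLike.congr_fun hcomm y
  · have e : chevG2.nroots - 1 = 11 := by rw [n11]
    have e1 : vec chevG2 2 (chevG2.nroots - 1) = vec chevG2 2 11 := by rw [e]
    rw [e1, xc_eq_xS hp2 (by rw [n11]; norm_num), xc_eq_xS hp2 (by rw [n11]; norm_num), h1 11 (by norm_num)]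
    simp

end Cfsg.Agent.H579.RG
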