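import Cfsg.Agent.H579.RG.LongLR

/-!
# S3509, exceptional groups: short root elements by an exceptional graph automorphism (helper579)

* `LR_aut` : transport of `LRData` by an automorphism preserving `I`; `LR_or` : two kinds of elements;
* `Vr m b` : the elements of `Y^σ` conjugate to `x_b(t)`; `Vm m = Vr m a`, `a` the highest root;
* `GrA m b α` : `α` commutes with `σ`, `α x_a(t) = x_b(t)`;
* `long_short` : the data for `V = Vm m ∨ Vr m b`;
* `exists_grA_G2` : `α` for `G₂`, characteristic 3, `b` the highest short root (`F₄`: `LongF4.lean`).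
-/

set_option autoImplicit false
set_option linter.unusedSectionVars false

namespace Cfsg.Agent.H579.RG

open CoxeterSystem Cfsg Cfsg.Lie Cfsg.Lie.ChevalleyDatum
open Cfsg.Agent.ChevalleyStructure Cfsg.Agent.ChevalleyStructure.Elts
open Cfsg.Agent.Nodes.RGDChev
open Cfsg.Agent.KFacts.RgdField Cfsg.Agent.KFacts.RgdChevCoord
  Cfsg.Agent.BpExc.TowChev Cfsg.Agent.GpExc.Field Cfsg.Agent.BpExc
open Cfsg.Agent.H469.Exc Cfsg.Agent.H469.Exc.SigFr Cfsg.Agent.H316.U6 Cfsg.Agent.H368.RG Cfsg.Agent.H380.RC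

universe u v

section abs

variable {Y : Type*} [Group Y] {I : Subgroup Y} {p : ℕ} {V V' : Y → Prop} {U U' : Y → Subgroup Y}

/-- transport by an automorphism -/
theorem LR_aut (h : LRData I p V U) (α : MulAut Y) (hI : ∀ y ∈ I, α⁻¹ y ∈ I) :
    LRData I p (fun v => V (α⁻¹ v)) (fun v => (U (α⁻¹ v)).map α.toMonoidHom) := by
  have hm : ∀ v u : Y, u ∈ (U (α⁻¹ v)).map α.toMonoidHom ↔ α⁻¹ u ∈ U (α⁻¹ v) := by
    intro v u
    constructor
    · rintro ⟨w, hw, rfl⟩
      change α⁻¹ (α w) ∈ _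
      rwa [MulAut.inv_apply_self]
    · intro hu
      exact ⟨α⁻¹ u, hu, MulAut.apply_inv_self Y α u⟩
  have hc : ∀ {x y : Y}, x * y = y * x → α⁻¹ x * α⁻¹ y = α⁻¹ y * α⁻¹ x := by
    intro x y hxy
    rw [← map_mul, hxy, map_mul]
  refine ⟨?_, ?_, ?_, ?_, ?_, ?_⟩
  · rintro v hv rfl
    exact h.ne _ hv (map_one _)
  · intro v hv u hu
    have h1 := h.comm _ hv _ ((hm v u).1 hu)
    rw [← map_mul, ← map_mul] at h1
    exact (α⁻¹).injective h1
  · intro v hv
    have h1 := h.nil _ hv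
    exact Group.nilpotent_of_mulEquiv ((U (α⁻¹ v)).equivMapOfInjective α.toMonoidHom α.injective)
  · intro v hv r hr hrp
    rw [← Nat.card_congr ((U (α⁻¹ v)).equivMapOfInjective α.toMonoidHom α.injective).toEquiv]
    exact h.card _ hv r hr hrp
  · intro v hv y hy hyv u hu
    rw [hm] at hu ⊢
    rw [map_mul, map_mul, map_inv]
    exact h.norm _ hv _ (hI y hy) (hc hyv) _ hu
  · intro v hv y hy hyv hy1 r hr hrp hyr
    have h1 := h.mem _ hv _ (hI y hy) (hc hyv) (fun h2 => hy1 ((α⁻¹).injective (h2.trans (map_one _).symm))) r hr hrp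
      (by rw [← map_pow, hyr, map_one])
    have h2 : cmm (U (α⁻¹ v)) (α⁻¹ y) ≤ (cmm ((U (α⁻¹ v)).map α.toMonoidHom) y).comap α.toMonoidHom := by
      conv_lhs => rw [cmm]
      rw [Subgroup.closure_le]
      rintro _ ⟨u, hu, rfl⟩
      change α (u * α⁻¹ y * u⁻¹ * (α⁻¹ y)⁻¹) ∈ cmm _ y
      rw [map_mul, map_mul, map_mul, map_inv, map_inv, MulAut.apply_inv_self]
      exact mem_cmm ⟨u, hu, rfl⟩
    have h3 : α (α⁻¹ v) ∈ cmm ((U (α⁻¹ v)).map α.toMonoidHom) y := h2 h1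
    rwa [MulAut.apply_inv_self] at h3

open Classical in
/-- the groups of two kinds of elements -/
noncomputable def Uor (V : Y → Prop) (U U' : Y → Subgroup Y) (v : Y) : Subgroup Y := if V v then U v else U' v

/-- two kinds of elements -/
theorem LR_or (h : LRData I p V U) (h' : LRData I p V' U') : LRData I p (fun v => V v ∨ V' v) (Uor V U U') := by
  have key : ∀ v, (V v ∨ V' v) → (V v ∧ Uor V U U' v = U v) ∨ (V' v ∧ Uor V U U' v = U' v) := by
    intro v hv
    by_cases h1 : V v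
    · exact Or.inl ⟨h1, if_pos h1⟩
    · exact Or.inr ⟨hv.resolve_left h1, if_neg h1⟩
  refine ⟨?_, ?_, ?_, ?_, ?_, ?_⟩
  · intro v hv
    exact hv.elim (h.ne v) (h'.ne v)
  · intro v hv
    rcases key v hv with ⟨h1, h2⟩ | ⟨h1, h2⟩ <;> rw [h2]
    · exact h.comm v h1
    · exact h'.comm v h1
  · intro v hv
    rcases key v hv with ⟨h1, h2⟩ | ⟨h1, h2⟩ <;> rw [h2]
    · exact h.nil v h1
    · exact h'.nil v h1
  · intro v hv
    rcases key v hv with ⟨h1, h2⟩ | ⟨h1, h2⟩ <;> rw [h2]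
    · exact h.card v h1
    · exact h'.card v h1
  · intro v hv
    rcases key v hv with ⟨h1, h2⟩ | ⟨h1, h2⟩ <;> rw [h2]
    · exact h.norm v h1
    · exact h'.norm v h1
  · intro v hv
    rcases key v hv with ⟨h1, h2⟩ | ⟨h1, h2⟩ <;> rw [h2]
    · exact h.mem v h1
    · exact h'.mem v h1

end abs

variable {D : ChevalleyDatum} {l : ℕ} {M : CoxeterMatrix (Fin l)} {hp : IsType D l M} {j : ℕ}
  {r q : ℕ} [hr : Fact r.Prime] {K₀ : Type v} [Group K₀]

/-- the elements of `Y^σ` conjugate to `x_b(t) ≠ 1` -/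
def Vr (m : MData hp r q K₀) (b : Fin l → ℤ) (v : ↥(D.group (KK r))) : Prop :=
  v ≠ 1 ∧ ∃ y, m.σ y = y ∧ ∃ t, m.σ (xc hp b t) = xc hp b t ∧ v = y * xc hp b t * y⁻¹

/-- `α` commutes with `σ` and maps `x_a(t)` to `x_b(t)` -/
structure GrA (m : MData hp r q K₀) (b : Fin l → ℤ) (α : MulAut ↥(D.group (KK r))) : Prop where
  comm : ∀ y, α (m.σ y) = m.σ (α y)
  map : ∀ t, α (xc hp (vec D l (D.nroots - 1)) t) = xc hp b t

variable {m : MData hp r q K₀} {b : Fin l → ℤ} {α : MulAut ↥(D.group (KK r))}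

theorem GrA.inv_fix (G : GrA m b α) {y : ↥(D.group (KK r))} (hy : m.σ y = y) : m.σ (α⁻¹ y) = α⁻¹ y := by
  apply α.injective
  rw [G.comm, MulAut.apply_inv_self, hy]

theorem Vr_iff (G : GrA m b α) {v : ↥(D.group (KK r))} : Vr m b v ↔ Vm m (α⁻¹ v) := by
  have hinv : ∀ t, α⁻¹ (xc hp b t) = xc hp (vec D l (D.nroots - 1)) t := fun t => by
    rw [← G.map, MulAut.inv_apply_self]
  constructor
  · rintro ⟨h1, y, hy, t, ht, rfl⟩
    refine ⟨fun h2 => h1 ((α⁻¹).injective (h2.trans (map_one _).symm)), α⁻¹ y, G.inv_fix hy, t, ?_, ?_⟩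
    · rw [← hinv, G.inv_fix ht]
    · rw [map_mul, map_mul, map_inv, hinv]
  · rintro ⟨h1, y, hy, t, ht, h2⟩
    refine ⟨?_, α y, by rw [← G.comm, hy], t, by rw [← G.map, ← G.comm, ht], ?_⟩
    · rintro rfl
      exact h1 (map_one _)
    · have h3 := congrArg α h2
      rwa [MulAut.apply_inv_self, map_mul, map_mul, map_inv, G.map] at h3

/-- the groups -/
noncomputable def Us (m : MData hp r q K₀) (j : ℕ) (α : MulAut ↥(D.group (KK r))) :
    ↥(D.group (KK r)) → Subgroup ↥(D.group (KK r)) :=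
  Uor (Vm m) (Um m j (D.nroots - 1)) fun v => (Um m j (D.nroots - 1) (α⁻¹ v)).map α.toMonoidHom

/-- **The data for long and short root elements.** -/
theorem long_short (T : LTab D l j) (G : GrA m b α) :
    LRData (fixedSubgroup m.σ) r (fun v => Vm m v ∨ Vr m b v) (Us m j α) ∧
    (∀ v, (Vm m v ∨ Vr m b v) → v ∈ m.ι.range) ∧ (∀ v, (Vm m v ∨ Vr m b v) → Us m j α v ≤ m.ι.range) ∧
    (∀ y ∈ fixedSubgroup m.σ, y ^ r = 1 → y ∈ m.ι.range) := by
  obtain ⟨h1, h2, h3, h4⟩ := long_root m T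
  have h5 : LRData (fixedSubgroup m.σ) r (Vr m b) fun v => (Um m j (D.nroots - 1) (α⁻¹ v)).map α.toMonoidHom :=
    LRmono (LR_aut h1 α fun y hy => G.inv_fix hy) fun v hv => (Vr_iff G).1 hv
  refine ⟨LR_or h1 h5, ?_, ?_, h4⟩
  · rintro v (hv | hv)
    · exact h2 v hv
    · have hv' := (Vr_iff G).1 hv
      obtain ⟨-, y, hy, t, ht, hvt⟩ := hv
      obtain ⟨-, y', -, t', -, hvt'⟩ := hv'
      obtain ⟨k, hk⟩ := pow_of_QQ T.1 (H351.RG.e_mem (e := xc (K := KK r) hp) (Or.inl rfl) t')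
      refine pmem m (k := k) ?_ ?_
      · rw [hvt, map_mul, map_mul, map_inv, hy, ht]
      · apply (α⁻¹).injective
        rw [map_pow, hvt', conj_pow, hk, map_one]
        group
  · rintro v -
    by_cases h6 : Vm m v
    · have e : Us m j α v = Um m j (D.nroots - 1) v := if_pos h6
      rw [e]
      exact h3 v h6
    · have e : Us m j α v = (Um m j (D.nroots - 1) (α⁻¹ v)).map α.toMonoidHom := if_neg h6
      rw [e]
      rintro _ ⟨u, hu, rfl⟩
      obtain ⟨h7, k, hk⟩ := pow_of_Um m T.1 hu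
      refine pmem m (k := k) ?_ ?_
      · change m.σ (α u) = α u
        rw [← G.comm, h7]
      · change α u ^ r ^ k = 1
        rw [← map_pow, hk, map_one]

end Cfsg.Agent.H579.RG
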